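import Mathlib

/-!
A cyclic group of order `h` acting without fixed points on a symplectic space of dimension `2n` over the prime field.
-/

set_option autoImplicit false
set_option linter.style.haveILetI false

namespace CfsgLib.ExtraCyclic

open Matrix

/-- Counting on the units modulo `h`. -/
theorem dvd_of_invariant {h : ℕ} [NeZero h] (u : (ZMod h)ˣ) (f : (ZMod h)ˣ → ℕ) (n : ℕ)
    (hu : ∀ x, f (x * u) = f x) (hneg : ∀ x, f (-x) = f x) (hsum : ∑ x, f x = 2 * n) (hh : 2 < h) :
    u ^ n = 1 ∨ u ^ n = -1 := by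
  classical
  haveI : Fact (2 < h) := ⟨hh⟩
  have hne : (-1 : (ZMod h)ˣ) ≠ 1 := fun e => ZMod.neg_one_ne_one (congrArg Units.val e)
  set S := Subgroup.closure ({u, -1} : Set (ZMod h)ˣ) with hS
  have hinv : ∀ s ∈ S, ∀ x, f (x * s) = f x := by
    intro s hs
    induction hs using Subgroup.closure_induction with
    | mem y hy =>
      rcases hy with rfl | rfl
      · exact hu
      · intro x; rw [mul_neg_one]; exact hneg x
    | one => intro x; rw [mul_one]
    | mul y z _ _ hy hz => intro x; rw [← mul_assoc, hz, hy]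
    | inv y _ hy => intro x; conv_rhs => rw [← inv_mul_cancel_right x y]
                    exact (hy _).symm
  have hdvd : Nat.card S ∣ 2 * n := by
    have e : ∑ x, f x = ∑ q : (ZMod h)ˣ ⧸ S, ∑ x ∈ Finset.univ.filter (fun x : (ZMod h)ˣ => QuotientGroup.mk x = q), f x :=
      (Finset.sum_fiberwise _ _ _).symm
    rw [← hsum, e]
    refine Finset.dvd_sum fun q _ => ?_
    obtain ⟨y, rfl⟩ := QuotientGroup.mk_surjective q
    rw [Finset.sum_congr rfl (g := fun _ => f y) (fun (x : (ZMod h)ˣ) hx => by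
      rw [Finset.mem_filter, QuotientGroup.eq] at hx
      rw [← hinv _ hx.2 x, mul_inv_cancel_left]), Finset.sum_const, smul_eq_mul]
    refine Dvd.dvd.mul_right (dvd_of_eq ?_) _
    rw [← Nat.card_eq_finsetCard]
    exact Nat.card_congr
      { toFun := fun s => ⟨y * (s : (ZMod h)ˣ), Finset.mem_filter.2 ⟨Finset.mem_univ _, by
          rw [QuotientGroup.eq, _root_.mul_inv_rev, inv_mul_cancel_right]; exact S.inv_mem s.2⟩⟩
        invFun := fun x => ⟨y⁻¹ * (x : (ZMod h)ˣ), by
          have := (Finset.mem_filter.1 x.2).2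
          rw [QuotientGroup.eq] at this
          simpa using S.inv_mem this⟩
        left_inv := fun s => Subtype.ext (inv_mul_cancel_left _ _)
        right_inv := fun x => Subtype.ext (mul_inv_cancel_left _ _) }
  have hcomm : IsMulCommutative S := inferInstance
  have hu2 : u ^ (2 * n) = 1 := by
    obtain ⟨c, hc⟩ := (Subgroup.orderOf_dvd_natCard S (Subgroup.subset_closure (Set.mem_insert u _))).trans hdvd
    rw [hc, pow_mul, pow_orderOf_eq_one, one_pow]
  by_cases hn : u ^ n = 1
  · exact Or.inl hn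
  refine Or.inr ?_
  by_cases hin : (-1 : (ZMod h)ˣ) ∈ Subgroup.zpowers u
  · obtain ⟨i, hi⟩ := Subgroup.mem_zpowers_iff.1 hin
    haveI : IsCyclic (Subgroup.zpowers u) := inferInstance
    have huniq : ∀ a b : Subgroup.zpowers u, a ^ 2 = 1 → b ^ 2 = 1 → a ≠ 1 → b ≠ 1 → a = b := by
      intro a b ha hb ha1 hb1
      by_contra hab
      have h3 : ({1, a, b} : Finset (Subgroup.zpowers u)).card = 3 :=
        Finset.card_eq_three.2 ⟨1, a, b, Ne.symm ha1, Ne.symm hb1, hab, rfl⟩
      have hle : ({1, a, b} : Finset (Subgroup.zpowers u)).card ≤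
          (Finset.univ.filter fun x : Subgroup.zpowers u => x ^ 2 = 1).card := by
        refine Finset.card_le_card fun x hx => ?_
        simp only [Finset.mem_insert, Finset.mem_singleton] at hx
        rcases hx with rfl | rfl | rfl <;> simp [ha, hb]
      have := IsCyclic.card_pow_eq_one_le (α := Subgroup.zpowers u) (n := 2) two_pos
      omega
    have h2 : (u ^ n : (ZMod h)ˣ) ^ 2 = 1 := by rw [← pow_mul, mul_comm, hu2]
    exact congrArg Subtype.val (huniq ⟨u ^ n, Subgroup.npow_mem_zpowers u n⟩ ⟨-1, hin⟩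
      (Subtype.ext (by simpa using h2)) (Subtype.ext (by simp)) (fun e => hn (congrArg Subtype.val e))
      (fun e => hne (congrArg Subtype.val e)))
  · exfalso
    apply hn
    rw [← orderOf_dvd_iff_pow_eq_one]
    have hlt : Subgroup.zpowers u < S := lt_of_le_of_ne (Subgroup.zpowers_le.2 (Subgroup.subset_closure (by simp)))
      fun e => hin (e.symm ▸ Subgroup.subset_closure (by simp))
    obtain ⟨c, hc⟩ := Subgroup.card_dvd_of_le hlt.le
    have hsq : ∀ s ∈ S, s ∈ Subgroup.zpowers u ∨ -s ∈ Subgroup.zpowers u := by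
      intro s hs
      induction hs using Subgroup.closure_induction with
      | mem y hy =>
        rcases hy with rfl | rfl
        · exact Or.inl (Subgroup.mem_zpowers _)
        · exact Or.inr (by rw [neg_neg]; exact one_mem _)
      | one => exact Or.inl (one_mem _)
      | mul y z _ _ hy hz =>
        rcases hy with hy | hy <;> rcases hz with hz | hz
        · exact Or.inl (mul_mem hy hz)
        · exact Or.inr (by rw [← mul_neg]; exact mul_mem hy hz)
        · exact Or.inr (by rw [← neg_mul]; exact mul_mem hy hz)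
        · exact Or.inl (by rw [← neg_mul_neg]; exact mul_mem hy hz)
      | inv y _ hy =>
        rcases hy with hy | hy
        · exact Or.inl (inv_mem hy)
        · exact Or.inr (by rw [← inv_neg]; exact inv_mem hy)
    have hc2 : c = 2 := by
      have h1 : Nat.card S ≤ Nat.card (Subgroup.zpowers u × Bool) := by
        refine Nat.card_le_card_of_surjective
          (fun x => if x.2 then ⟨(x.1 : (ZMod h)ˣ), hlt.le x.1.2⟩ else
            ⟨-(x.1 : (ZMod h)ˣ), by
              rw [← neg_one_mul]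
              exact S.mul_mem (Subgroup.subset_closure (by simp)) (hlt.le x.1.2)⟩) fun s => ?_
        rcases hsq s s.2 with h | h
        · exact ⟨(⟨_, h⟩, true), by simp⟩
        · exact ⟨(⟨_, h⟩, false), by simp⟩
      rw [Nat.card_prod, Nat.card_eq_fintype_card (α := Bool), Fintype.card_bool, hc] at h1
      have h2 : c ≤ 2 := Nat.le_of_mul_le_mul_left h1 Nat.card_pos
      rcases Nat.lt_or_ge c 2 with h3 | h3
      · exfalso
        refine hlt.ne (Subgroup.eq_of_le_of_card_ge hlt.le ?_)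
        interval_cases c
        · rw [mul_zero] at hc; exact absurd hc (Nat.card_pos (α := S)).ne'
        · rw [hc, mul_one]
      · omega
    rw [hc, hc2, Nat.card_zpowers, mul_comm 2 n] at hdvd
    exact Nat.dvd_of_mul_dvd_mul_right two_pos hdvd

/-- The number of the fixed order divides `p ^ n + 1` or `p ^ n - 1`. -/
theorem dvd_pow_succ_or_pred {p h n : ℕ} [Fact p.Prime] (hhp : h.Coprime p) (hn : 1 ≤ n)
    (M J : Matrix (Fin (2 * n)) (Fin (2 * n)) (ZMod p)) (hJ : IsUnit J) (hMh : M ^ h = 1)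
    (hMJ : Mᵀ * J * M = J) (hfix : ∀ i, 0 < i → i < h → ∀ v, (M ^ i) *ᵥ v = v → v = 0) :
    h ∣ p ^ n + 1 ∨ h ∣ p ^ n - 1 := by
  classical
  have hpp : p.Prime := Fact.out
  have hh0 : h ≠ 0 := fun e => by
    subst e
    rw [Nat.coprime_zero_left] at hhp
    exact hpp.ne_one hhp
  have hpn : 1 ≤ p ^ n := Nat.one_le_pow _ _ hpp.pos
  rcases Nat.lt_or_ge 2 h with hh | hh
  swap
  · interval_cases h
    · exact absurd rfl hh0
    · exact Or.inl (one_dvd _)
    · refine Or.inl (even_iff_two_dvd.1 ?_)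
      exact ((hpp.odd_of_ne_two fun e => by subst e; norm_num at hhp).pow).add_one
  haveI : NeZero h := ⟨hh0⟩
  set u : (ZMod h)ˣ := ZMod.unitOfCoprime p hhp.symm with hu
  set d := orderOf u with hd
  have hd0 : d ≠ 0 := (orderOf_pos u).ne'
  obtain ⟨K, _, _, _, hKcard⟩ : ∃ (K : Type) (_ : Field K) (_ : Fintype K) (_ : Algebra (ZMod p) K),
      Nat.card K = p ^ d :=
    ⟨GaloisField p d, inferInstance, Fintype.ofFinite _, inferInstance, GaloisField.card p d hd0⟩
  have hKc : Nat.card Kˣ = p ^ d - 1 := by rw [Nat.card_units, hKcard]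
  have hhd : h ∣ p ^ d - 1 := by
    rw [← ZMod.natCast_eq_zero_iff, Nat.cast_sub (Nat.one_le_pow _ _ hpp.pos), Nat.cast_one, sub_eq_zero]
    have := congrArg Units.val (pow_orderOf_eq_one u)
    rw [Units.val_pow_eq_pow_val, hu, ZMod.coe_unitOfCoprime, Units.val_one] at this
    push_cast
    exact this
  obtain ⟨g, hg⟩ := IsCyclic.exists_ofOrder_eq_natCard (α := Kˣ)
  set ω : K := ((g ^ ((p ^ d - 1) / h) : Kˣ) : K) with hω
  have hωo : orderOf ω = h := by
    rw [hω, orderOf_units, orderOf_pow' _ (Nat.div_pos (Nat.le_of_dvd (by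
      have : 1 < p ^ d := Nat.one_lt_pow hd0 hpp.one_lt
      omega) hhd) (Nat.pos_of_ne_zero hh0)).ne', hg, hKc,
      Nat.gcd_eq_right (Nat.div_dvd_of_dvd hhd)]
    exact Nat.div_div_self hhd (by
      have : 1 < p ^ d := Nat.one_lt_pow hd0 hpp.one_lt
      omega)
  have hωh : ω ^ h = 1 := by rw [← hωo]; exact pow_orderOf_eq_one ω
  haveI : CharP K p := charP_of_injective_algebraMap (algebraMap (ZMod p) K).injective p
  have hhK : (h : K) ≠ 0 := fun e => by
    have := Nat.eq_one_of_dvd_coprimes hhp ((CharP.cast_eq_zero_iff K p h).1 e) dvd_rfl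
    exact hpp.ne_one this
  let ι : ZMod p →+* K := algebraMap (ZMod p) K
  set A := M.map ι with hA
  have hAh : A ^ h = 1 := by
    rw [hA, ← RingHom.mapMatrix_apply, ← map_pow, hMh, map_one]
  let ker : K → Type := fun c => {v : Fin (2 * n) → K // A *ᵥ v = c • v}
  have hker : ∀ c : K, ∃ m : ℕ, Nat.card (ker c) = (p ^ d) ^ m ∧ m = Module.finrank K (LinearMap.ker (Matrix.toLin' A - c • LinearMap.id)) := by
    intro c
    refine ⟨_, ?_, rfl⟩
    rw [← hKcard]
    rw [← Module.natCard_eq_pow_finrank (K := K)]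
    refine Nat.card_congr (Equiv.subtypeEquivRight fun v => ?_)
    simp [LinearMap.mem_ker, sub_eq_zero]
  choose m hm hm' using hker
  have hpd1 : 1 < p ^ d := Nat.one_lt_pow hd0 hpp.one_lt
  -- Frobenius
  have hfrob : ∀ c : K, m (c ^ p) = m c := by
    intro c
    refine Nat.pow_right_injective hpd1 ?_
    show (p ^ d) ^ m (c ^ p) = (p ^ d) ^ m c
    rw [← hm, ← hm]
    have hF : Function.Bijective (frobenius K p) :=
      Finite.injective_iff_bijective.1 (frobenius K p).injective
    have hι : ∀ x, frobenius K p (ι x) = ι x := fun x => by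
      rw [frobenius_def, ← map_pow, ZMod.pow_card]
    have hmul : ∀ v : Fin (2 * n) → K, A *ᵥ (fun i => frobenius K p (v i)) = fun i => frobenius K p ((A *ᵥ v) i) := by
      intro v
      funext i
      simp only [Matrix.mulVec, dotProduct, map_sum, map_mul]
      refine Finset.sum_congr rfl fun j _ => ?_
      rw [hA, Matrix.map_apply, hι]
    refine (Nat.card_congr ((Equiv.piCongrRight fun _ : Fin (2 * n) => Equiv.ofBijective _ hF).subtypeEquiv fun v => ?_)).symm
    show A *ᵥ v = c • v ↔ A *ᵥ (fun i => frobenius K p (v i)) = (c ^ p) • fun i => frobenius K p (v i)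
    rw [hmul]
    constructor
    · intro e
      funext i
      rw [e]
      simp [Pi.smul_apply, frobenius_def, mul_pow]
    · intro e
      funext i
      apply hF.1
      have := congrFun e i
      simp only [Pi.smul_apply, smul_eq_mul] at this
      rw [this, Pi.smul_apply, smul_eq_mul, map_mul]
      simp [frobenius_def]
  -- inversion
  have hinvm : ∀ c : K, c ≠ 0 → m c⁻¹ = m c := by
    intro c hc
    set Jk := J.map ι with hJk
    have hJu : IsUnit Jk := by
      rw [hJk, ← RingHom.mapMatrix_apply]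
      exact hJ.map _
    have hAJ : Aᵀ * Jk * A = Jk := by
      have := congrArg (fun X : Matrix (Fin (2 * n)) (Fin (2 * n)) (ZMod p) => X.map ι) hMJ
      simp only [Matrix.map_mul] at this
      rw [hA, hJk]
      exact this
    set B := A - c • (1 : Matrix (Fin (2 * n)) (Fin (2 * n)) K) with hB
    have hm0 : ∀ e : K, m e = Module.finrank K (LinearMap.ker (Matrix.mulVecLin (A - e • (1 : Matrix _ _ K)))) := by
      intro e
      rw [hm' e]
      rw [show Matrix.toLin' A - e • LinearMap.id = Matrix.mulVecLin (A - e • (1 : Matrix _ _ K)) from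
        LinearMap.ext fun v => by simp [Matrix.sub_mulVec, Matrix.smul_mulVec]]
    have h1 : Module.finrank K (LinearMap.ker (Matrix.mulVecLin B)) = Module.finrank K (LinearMap.ker (Matrix.mulVecLin Bᵀ)) := by
      have e1 := LinearMap.finrank_range_add_finrank_ker (Matrix.mulVecLin B)
      have e2 := LinearMap.finrank_range_add_finrank_ker (Matrix.mulVecLin Bᵀ)
      have e3 : Bᵀ.rank = B.rank := Matrix.rank_transpose B
      unfold Matrix.rank at e3
      omega
    obtain ⟨U, hU⟩ := hJu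
    have hkereq : ∀ v, (Matrix.mulVecLin (A - c⁻¹ • (1 : Matrix _ _ K))) v = 0 ↔ (Matrix.mulVecLin Bᵀ) (Jk *ᵥ v) = 0 := by
      intro v
      have hJinj : ∀ w, Jk *ᵥ w = 0 → w = 0 := by
        intro w hw
        have := congrArg ((↑U⁻¹ : Matrix (Fin (2 * n)) (Fin (2 * n)) K) *ᵥ ·) hw
        simpa [Matrix.mulVec_mulVec, ← hU] using this
      have hTinj : ∀ w, Aᵀ *ᵥ w = 0 → w = 0 := by
        intro w hw
        have hpow : (Aᵀ) ^ h = 1 := by rw [← Matrix.transpose_pow, hAh, Matrix.transpose_one]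
        have := congrArg ((Aᵀ ^ (h - 1)) *ᵥ ·) hw
        simp only [Matrix.mulVec_mulVec, ← pow_succ, Nat.sub_add_cancel (Nat.one_le_iff_ne_zero.2 hh0), hpow,
          Matrix.one_mulVec, Matrix.mulVec_zero] at this
        exact this
      simp only [Matrix.mulVecLin_apply, hB, Matrix.transpose_sub, Matrix.transpose_smul, Matrix.transpose_one,
        Matrix.sub_mulVec, Matrix.smul_mulVec, Matrix.one_mulVec, sub_eq_zero]
      constructor
      · intro e
        have h2 := congrArg (fun w => c • (Aᵀ *ᵥ (Jk *ᵥ w))) e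
        simp only [Matrix.mulVec_mulVec, Matrix.mulVec_smul, smul_smul, mul_inv_cancel₀ hc, one_smul] at h2
        rw [← mul_assoc, hAJ] at h2
        rw [Matrix.mulVec_mulVec]
        exact h2.symm
      · intro e
        refine sub_eq_zero.1 (hJinj _ (hTinj _ ?_))
        rw [Matrix.mulVec_sub, Matrix.mulVec_sub, Matrix.mulVec_smul, Matrix.mulVec_smul, e, smul_smul,
          inv_mul_cancel₀ hc, one_smul, sub_eq_zero, Matrix.mulVec_mulVec, Matrix.mulVec_mulVec, hAJ]
    rw [hm0, hm0, h1]
    let E : (Fin (2 * n) → K) ≃ₗ[K] (Fin (2 * n) → K) :=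
      LinearEquiv.ofInjectiveEndo (Matrix.mulVecLin Jk) (fun a b e => by
        have := congrArg ((↑U⁻¹ : Matrix (Fin (2 * n)) (Fin (2 * n)) K) *ᵥ ·) e
        simpa [Matrix.mulVec_mulVec, ← hU] using this)
    refine (E.ofSubmodules _ _ ?_).finrank_eq
    ext w
    rw [Submodule.mem_map]
    constructor
    · rintro ⟨v, hv, rfl⟩
      exact LinearMap.mem_ker.2 ((hkereq v).1 hv)
    · intro hw
      obtain ⟨v, rfl⟩ := E.surjective w
      exact ⟨v, (hkereq v).2 hw, rfl⟩
  -- nothing outside the primitive roots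
  have hzero : ∀ c : K, ∀ i, 0 < i → i < h → c ^ i = 1 → m c = 0 := by
    intro c i hi0 hih hci
    have hdet : IsUnit (M ^ i - 1).det := by
      rw [isUnit_iff_ne_zero]
      intro e
      obtain ⟨v, hv0, hv⟩ := Matrix.exists_mulVec_eq_zero_iff.2 e
      exact hv0 (hfix i hi0 hih v (sub_eq_zero.1 (by rwa [Matrix.sub_mulVec, Matrix.one_mulVec] at hv)))
    have hdetK : (A ^ i - 1).det ≠ 0 := by
      have h1 : A ^ i - 1 = (M ^ i - 1).map ι := by
        rw [hA, ← RingHom.mapMatrix_apply, ← RingHom.mapMatrix_apply, map_sub, map_pow, map_one]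
      rw [h1, ← RingHom.mapMatrix_apply, ← RingHom.map_det]
      exact (hdet.map ι).ne_zero
    refine Nat.pow_right_injective hpd1 ?_
    show (p ^ d) ^ m c = (p ^ d) ^ 0
    rw [← hm, pow_zero, Nat.card_eq_one_iff_unique]
    refine ⟨⟨fun a b => Subtype.ext ?_⟩, ⟨⟨0, by simp⟩⟩⟩
    have : ∀ a : ker c, a.1 = 0 := fun a => by
      by_contra ha
      refine hdetK (Matrix.exists_mulVec_eq_zero_iff.1 ⟨a.1, ha, ?_⟩)
      have : ∀ j : ℕ, (A ^ j) *ᵥ a.1 = c ^ j • a.1 := by
        intro j
        induction j with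
        | zero => simp
        | succ j ih => rw [pow_succ', ← Matrix.mulVec_mulVec, ih, Matrix.mulVec_smul, a.2, smul_smul, ← pow_succ]
      rw [Matrix.sub_mulVec, this, hci, one_smul, Matrix.one_mulVec, sub_self]
    rw [this a, this b]
  -- the eigenspace decomposition
  set P : ℕ → Matrix (Fin (2 * n)) (Fin (2 * n)) K := fun j =>
    (h : K)⁻¹ • ∑ i ∈ Finset.range h, ((ω ^ j)⁻¹) ^ i • A ^ i with hP
  have hω0 : ω ≠ 0 := fun e => by rw [e, zero_pow hh0] at hωh; exact zero_ne_one hωh
  have hPA : ∀ (j : ℕ) v, A *ᵥ (P j *ᵥ v) = (ω ^ j) • (P j *ᵥ v) := by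
    intro j v
    have hpj : A * P j = (ω ^ j) • P j := by
      set F : ℕ → Matrix (Fin (2 * n)) (Fin (2 * n)) K := fun i => ((ω ^ j)⁻¹) ^ i • A ^ i
      have e1 : A * P j = (h : K)⁻¹ • ((ω ^ j) • ∑ i ∈ Finset.range h, F (i + 1)) := by
        rw [hP]
        simp only [mul_smul_comm, Finset.mul_sum, Finset.smul_sum, F]
        refine Finset.sum_congr rfl fun i _ => ?_
        rw [smul_smul (ω ^ j), pow_succ' ((ω ^ j)⁻¹), ← mul_assoc, mul_inv_cancel₀ (pow_ne_zero j hω0), one_mul,
          pow_succ']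
      have e2 : ∑ i ∈ Finset.range h, F (i + 1) = ∑ i ∈ Finset.range h, F i := by
        have e3 := Finset.sum_range_succ' F h
        rw [Finset.sum_range_succ] at e3
        have e4 : F h = F 0 := by
          simp only [F, hAh, pow_zero, inv_pow]
          rw [pow_right_comm, hωh, one_pow, inv_one]
        rw [e4] at e3
        exact (add_right_cancel e3).symm
      rw [e1, e2, smul_comm]
    rw [Matrix.mulVec_mulVec, hpj, Matrix.smul_mulVec]
  have hPsum : ∑ j ∈ Finset.range h, P j = 1 := by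
    simp only [hP, ← Finset.smul_sum]
    rw [Finset.sum_comm]
    rw [Finset.sum_eq_single 0]
    · simp [← Nat.cast_smul_eq_nsmul K, smul_smul, inv_mul_cancel₀ hhK]
    · intro i hi hi0
      rw [← Finset.sum_smul]
      have hz : ∑ j ∈ Finset.range h, ((ω ^ j)⁻¹) ^ i = 0 := by
        simp_rw [← inv_pow ω, ← pow_mul, mul_comm _ i, pow_mul]
        rw [geom_sum_eq]
        · rw [← pow_mul, mul_comm, pow_mul, inv_pow, hωh, inv_one, one_pow, sub_self, zero_div]
        · intro e
          rw [inv_pow, inv_eq_one, ← orderOf_dvd_iff_pow_eq_one, hωo] at e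
          exact absurd (Nat.le_of_dvd (Nat.pos_of_ne_zero hi0) e) (not_le.2 (Finset.mem_range.1 hi))
      rw [hz, zero_smul]
    · exact fun hi => absurd (Finset.mem_range.2 (Nat.pos_of_ne_zero hh0)) hi
  have heig : ∀ (j l : ℕ), j < h → l < h → ∀ v, A *ᵥ v = (ω ^ l) • v → P j *ᵥ v = if j = l then v else 0 := by
    intro j l hj hl v hv
    have hp2 : ∀ i : ℕ, (A ^ i) *ᵥ v = (ω ^ l) ^ i • v := by
      intro i
      induction i with
      | zero => simp
      | succ i ih => rw [pow_succ', ← Matrix.mulVec_mulVec, ih, Matrix.mulVec_smul, hv, smul_smul, ← pow_succ]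
    simp only [hP, Matrix.smul_mulVec, Matrix.sum_mulVec, hp2, smul_smul, ← mul_pow]
    rw [← Finset.sum_smul, smul_smul]
    split_ifs with e
    · subst e
      rw [inv_mul_cancel₀ (pow_ne_zero _ hω0)]
      simp [inv_mul_cancel₀ hhK]
    · rw [geom_sum_eq]
      · rw [mul_pow, inv_pow, ← pow_mul, ← pow_mul, mul_comm j h, mul_comm l h, pow_mul, pow_mul, hωh, one_pow,
          one_pow, inv_one, mul_one, sub_self, zero_div, mul_zero, zero_smul]
      · rw [Ne, inv_mul_eq_one₀ (pow_ne_zero _ hω0)]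
        intro e'
        exact e (pow_injOn_Iio_orderOf (Set.mem_Iio.2 (hωo.symm ▸ hj)) (Set.mem_Iio.2 (hωo.symm ▸ hl)) e')
  let Ψ : (Fin (2 * n) → K) ≃ ((j : Fin h) → ker (ω ^ (j : ℕ))) :=
    { toFun := fun v j => ⟨P j *ᵥ v, hPA j v⟩
      invFun := fun w => ∑ j, (w j).1
      left_inv := fun v => by
        show ∑ j : Fin h, P j *ᵥ v = v
        rw [Fin.sum_univ_eq_sum_range (fun j => P j *ᵥ v) h, ← Matrix.sum_mulVec, hPsum, Matrix.one_mulVec]
      right_inv := fun w => by
        funext j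
        refine Subtype.ext ?_
        show P j *ᵥ ∑ l, (w l).1 = (w j).1
        rw [Matrix.mulVec_sum, Finset.sum_eq_single j]
        · rw [heig j j j.2 j.2 _ (w j).2, if_pos rfl]
        · intro l _ hl
          rw [heig j l j.2 l.2 _ (w l).2, if_neg fun e => hl (Fin.ext e).symm]
        · exact fun hh => absurd (Finset.mem_univ j) hh }
  have htot : ∑ j : Fin h, m (ω ^ (j : ℕ)) = 2 * n := by
    refine Nat.pow_right_injective hpd1 ?_
    show (p ^ d) ^ (∑ j : Fin h, m (ω ^ (j : ℕ))) = (p ^ d) ^ (2 * n)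
    rw [← Finset.prod_pow_eq_pow_sum]
    simp_rw [← hm]
    rw [← Nat.card_pi, ← Nat.card_congr Ψ, Nat.card_fun, hKcard, Nat.card_eq_fintype_card,
      Fintype.card_fin]
  -- counting over the units
  let f : (ZMod h)ˣ → ℕ := fun x => m (ω ^ (x : ZMod h).val)
  have hωval : ∀ a : ℕ, ω ^ ((a : ZMod h).val) = ω ^ a := fun a => by
    rw [ZMod.val_natCast]; conv_rhs => rw [← pow_mod_orderOf, hωo]
  have hfu : ∀ x, f (x * u) = f x := by
    intro x
    show m (ω ^ ((x * u : (ZMod h)ˣ) : ZMod h).val) = m (ω ^ (x : ZMod h).val)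
    rw [Units.val_mul, hu, ZMod.coe_unitOfCoprime, ← ZMod.natCast_zmod_val (x : ZMod h), ← Nat.cast_mul, hωval,
      ZMod.natCast_zmod_val, pow_mul, hfrob]
  have hfneg : ∀ x, f (-x) = f x := by
    intro x
    show m (ω ^ ((-x : (ZMod h)ˣ) : ZMod h).val) = m (ω ^ (x : ZMod h).val)
    rw [Units.val_neg, show ω ^ (-(x : ZMod h)).val = (ω ^ (x : ZMod h).val)⁻¹ from eq_inv_of_mul_eq_one_left (by
      rw [← pow_add, ← hωval, Nat.cast_add, ZMod.natCast_zmod_val, ZMod.natCast_zmod_val, neg_add_cancel,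
        ZMod.val_zero, pow_zero]), hinvm _ (pow_ne_zero _ hω0)]
  have hfsum : ∑ x, f x = 2 * n := by
    rw [← htot]
    have hz : ∀ j : Fin h, ¬ (j : ℕ).Coprime h → m (ω ^ (j : ℕ)) = 0 := fun j hj => by
      set g := Nat.gcd (j : ℕ) h with hg
      have hgd : g ∣ h := Nat.gcd_dvd_right _ _
      have hg0 : 0 < g := Nat.gcd_pos_of_pos_right _ (Nat.pos_of_ne_zero hh0)
      have hg1 : 1 < g := lt_of_le_of_ne hg0 (Ne.symm hj)
      refine hzero _ (h / g) (Nat.div_pos (Nat.le_of_dvd (Nat.pos_of_ne_zero hh0) hgd) hg0)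
        (Nat.div_lt_self (Nat.pos_of_ne_zero hh0) hg1) ?_
      obtain ⟨a, ha⟩ := Nat.gcd_dvd_left (j : ℕ) h
      have hjh : (j : ℕ) * (h / g) = a * h := by
        rw [ha, ← hg, mul_comm g a, mul_assoc, Nat.mul_div_cancel' hgd]
      rw [← pow_mul, hjh, mul_comm, pow_mul, hωh, one_pow]
    refine Finset.sum_bij_ne_zero (fun x _ _ => (⟨(x : ZMod h).val, ZMod.val_lt _⟩ : Fin h))
      (fun x _ _ => Finset.mem_univ _) (fun x _ _ y _ _ e => Units.ext (ZMod.val_injective h (congrArg Fin.val e)))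
      (fun j _ hj => ?_) fun x _ _ => rfl
    have hjc : (j : ℕ).Coprime h := by
      by_contra hc
      exact hj (hz j hc)
    refine ⟨ZMod.unitOfCoprime j hjc, Finset.mem_univ _, ?_, ?_⟩
    · show m (ω ^ ((ZMod.unitOfCoprime j hjc : (ZMod h)ˣ) : ZMod h).val) ≠ 0
      rwa [ZMod.coe_unitOfCoprime, hωval]
    · refine Fin.ext ?_
      show ((ZMod.unitOfCoprime j hjc : (ZMod h)ˣ) : ZMod h).val = j
      rw [ZMod.coe_unitOfCoprime, ZMod.val_natCast, Nat.mod_eq_of_lt j.2]
  rcases dvd_of_invariant u f n hfu hfneg hfsum hh with e | e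
  · refine Or.inr ?_
    rw [← ZMod.natCast_eq_zero_iff, Nat.cast_sub hpn, Nat.cast_one, sub_eq_zero]
    simpa [hu] using congrArg Units.val e
  · refine Or.inl ?_
    rw [← ZMod.natCast_eq_zero_iff, Nat.cast_add, Nat.cast_one, add_eq_zero_iff_eq_neg]
    simpa [hu] using congrArg Units.val e

end CfsgLib.ExtraCyclic
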