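import Cfsg.Agent.ExtraCyclic.Linear
import Cfsg.Agent.PGroup.Extraspecial
import Cfsg.Agent.CoprimeAction.Basic

/-!
A cyclic group acting fixed-point-freely on an extraspecial group modulo its centre.
-/

set_option autoImplicit false
set_option linter.style.haveILetI false

namespace CfsgLib.ExtraCyclic

open Matrix CfsgLib.Extraspecial
open scoped commutatorElement

/-- The order of a cyclic group acting fixed-point-freely on an extraspecial group. -/
theorem extraspecial_order_dvd {G : Type*} [Group G] [Finite G] {p : ℕ} [Fact p.Prime] (P H : Subgroup G)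
    (hP : Cfsg.IsExtraspecial p P) (n : ℕ) (hn : Nat.card P = p ^ (2 * n + 1)) (hH : IsCyclic H)
    (hcop : (Nat.card H).Coprime p) (hHP : H ≤ Subgroup.normalizer (P : Set G))
    (hfix : ∀ x ∈ H, x ≠ 1 → P ⊓ Subgroup.centralizer {x} = (Subgroup.center P).map P.subtype) :
    Nat.card H ∣ p ^ n + 1 ∨ Nat.card H ∣ p ^ n - 1 := by
  classical
  have hpp : p.Prime := Fact.out
  set Z := Subgroup.center P with hZ
  have hn1 : 1 ≤ n := by
    obtain ⟨m, hm, hc⟩ := exists_card hP
    have := Nat.pow_right_injective hpp.two_le (hn.symm.trans hc)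
    omega
  letI : CommGroup (P ⧸ Z) := { (inferInstance : Group (P ⧸ Z)) with
    mul_comm := fun a b => by
      obtain ⟨a, rfl⟩ := QuotientGroup.mk_surjective a
      obtain ⟨b, rfl⟩ := QuotientGroup.mk_surjective b
      rw [← QuotientGroup.mk_mul, ← QuotientGroup.mk_mul, QuotientGroup.eq]
      have hm := commutator_mem_center hP b⁻¹ a⁻¹
      rw [commutatorElement_def] at hm
      simpa [mul_assoc] using hm }
  have hz : ∀ v : Additive (P ⧸ Z), p • v = 0 := by
    intro v
    obtain ⟨a, ha⟩ := QuotientGroup.mk_surjective (Additive.toMul v)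
    apply Additive.toMul.injective
    rw [toMul_nsmul, toMul_zero, ← ha, ← QuotientGroup.mk_pow]
    exact (QuotientGroup.eq_one_iff _).2 (pow_mem_center hP a)
  letI : Module (ZMod p) (Additive (P ⧸ Z)) := AddCommGroup.zmodModule (n := p) hz
  haveI : Module.Finite (ZMod p) (Additive (P ⧸ Z)) := Module.Finite.of_finite
  have hr : Module.finrank (ZMod p) (Additive (P ⧸ Z)) = 2 * n := by
    have h2 : Nat.card (Additive (P ⧸ Z)) = Nat.card (ZMod p) ^ Module.finrank (ZMod p) (Additive (P ⧸ Z)) :=
      Module.natCard_eq_pow_finrank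
    rw [Nat.card_zmod, Nat.card_congr Additive.toMul] at h2
    have h1 := Subgroup.card_eq_card_quotient_mul_card_subgroup Z
    rw [hn, hP.2, h2, pow_succ] at h1
    exact Nat.pow_right_injective hpp.two_le (Nat.eq_of_mul_eq_mul_right hpp.pos h1).symm
  let b : Module.Basis (Fin (2 * n)) (ZMod p) (Additive (P ⧸ Z)) :=
    Module.finBasisOfFinrankEq (ZMod p) (Additive (P ⧸ Z)) hr
  -- the action
  let cj : H →* MulAut P := (Subgroup.normalizerMonoidHom P).comp (Subgroup.inclusion hHP)
  have hcj : ∀ (a : H) (k : P), ((cj a k : P) : G) = (a : G) * k * (a : G)⁻¹ := fun a k => rfl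
  have hcjZ : ∀ a : H, Z.map (cj a : P →* P) = Z := fun a =>
    Subgroup.characteristic_iff_map_eq.1 inferInstance (cj a)
  let ρ : H →* MulAut (P ⧸ Z) :=
    { toFun := fun a => QuotientGroup.congr Z Z (cj a) (hcjZ a)
      map_one' := by
        refine MulEquiv.ext fun q => ?_
        obtain ⟨k, rfl⟩ := QuotientGroup.mk_surjective q
        rw [QuotientGroup.congr_mk, map_one]; rfl
      map_mul' := fun x y => by
        refine MulEquiv.ext fun q => ?_
        obtain ⟨k, rfl⟩ := QuotientGroup.mk_surjective q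
        rw [QuotientGroup.congr_mk, map_mul]; rfl }
  let L : H →* Module.End (ZMod p) (Additive (P ⧸ Z)) :=
    { toFun := fun a => ((ρ a).toMonoidHom.toAdditive).toZModLinearMap p
      map_one' := by
        refine LinearMap.ext fun v => ?_
        show Additive.ofMul (ρ 1 v.toMul) = v
        rw [map_one]; rfl
      map_mul' := fun x y => by
        refine LinearMap.ext fun v => ?_
        show Additive.ofMul (ρ (x * y) v.toMul) = _
        rw [map_mul]; rfl }
  have hL : ∀ (a : H) (k : P), L a (Additive.ofMul (k : P ⧸ Z)) = Additive.ofMul ((cj a k : P) : P ⧸ Z) :=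
    fun a k => rfl
  -- the commutator form
  letI : CommGroup Z := IsMulCommutative.instCommGroup
  let Φ : P → (P ⧸ Z →* Z) := fun a => QuotientGroup.lift Z
    { toFun := fun k => ⟨⁅a, k⁆, commutator_mem_center hP a k⟩
      map_one' := Subtype.ext (commutatorElement_one_right a)
      map_mul' := fun x y => Subtype.ext (by
        show ⁅a, x * y⁆ = ⁅a, x⁆ * ⁅a, y⁆
        have hc := Subgroup.mem_center_iff.1 (commutator_mem_center hP a y) x
        calc ⁅a, x * y⁆ = ⁅a, x⁆ * (x * ⁅a, y⁆) * x⁻¹ := by simp [commutatorElement_def, mul_assoc]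
          _ = ⁅a, x⁆ * ⁅a, y⁆ := by rw [hc]; group) }
    (fun z hz => Subtype.ext (commutatorElement_eq_one_iff_mul_comm.2 (Subgroup.mem_center_iff.1 hz a)))
  have hΦ : ∀ a k : P, (Φ a (k : P ⧸ Z) : P) = ⁅a, k⁆ := fun a k => rfl
  let β : P ⧸ Z →* (P ⧸ Z →* Z) := QuotientGroup.lift Z
    { toFun := Φ
      map_one' := by
        refine MonoidHom.ext fun q => ?_
        obtain ⟨k, rfl⟩ := QuotientGroup.mk_surjective q
        refine Subtype.ext ?_
        rw [hΦ, commutatorElement_one_left]; rfl
      map_mul' := fun x y => by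
        refine MonoidHom.ext fun q => ?_
        obtain ⟨k, rfl⟩ := QuotientGroup.mk_surjective q
        refine Subtype.ext ?_
        rw [MonoidHom.mul_apply, Subgroup.coe_mul, hΦ, hΦ, hΦ]
        have hc := Subgroup.mem_center_iff.1 (commutator_mem_center hP y k) x
        calc ⁅x * y, k⁆ = (x * ⁅y, k⁆) * x⁻¹ * ⁅x, k⁆ := by simp [commutatorElement_def, mul_assoc]
          _ = ⁅x, k⁆ * ⁅y, k⁆ := by
            rw [hc, mul_inv_cancel_right, Subgroup.mem_center_iff.1 (commutator_mem_center hP y k) ⁅x, k⁆] }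
    (fun z hz => by
      refine MonoidHom.mem_ker.2 (MonoidHom.ext fun q => ?_)
      obtain ⟨k, rfl⟩ := QuotientGroup.mk_surjective q
      refine Subtype.ext ?_
      show ⁅z, k⁆ = 1
      exact commutatorElement_eq_one_iff_mul_comm.2 (Subgroup.mem_center_iff.1 hz k).symm)
  have hβ : ∀ a k : P, (β (a : P ⧸ Z) (k : P ⧸ Z) : P) = ⁅a, k⁆ := fun a k => rfl
  let e : Z ≃* Multiplicative (ZMod p) :=
    mulEquivOfPrimeCardEq hP.2 (by rw [Nat.card_congr Multiplicative.toAdd, Nat.card_zmod])
  let B0 : Additive (P ⧸ Z) →+ (Additive (P ⧸ Z) →ₗ[ZMod p] ZMod p) :=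
    AddMonoidHom.mk' (fun u => AddMonoidHom.toZModLinearMap p
      (AddMonoidHom.mk' (fun w => Multiplicative.toAdd (e (β u.toMul w.toMul))) (fun w w' => by
        rw [toMul_add, map_mul, map_mul, toAdd_mul]))) (fun u u' => by
        refine LinearMap.ext fun w => ?_
        show Multiplicative.toAdd (e (β (u + u').toMul w.toMul)) = _
        rw [toMul_add, map_mul, MonoidHom.mul_apply, map_mul, toAdd_mul]; rfl)
  let B : Additive (P ⧸ Z) →ₗ[ZMod p] Additive (P ⧸ Z) →ₗ[ZMod p] ZMod p := B0.toZModLinearMap p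
  have hB : ∀ a k : P, B (Additive.ofMul (a : P ⧸ Z)) (Additive.ofMul (k : P ⧸ Z))
      = Multiplicative.toAdd (e ⟨⁅a, k⁆, commutator_mem_center hP a k⟩) := fun a k => rfl
  have hfixZ : ∀ (a : H) (z : P), z ∈ Z → cj a z = z := by
    intro a z hz
    refine Subtype.ext ?_
    rw [hcj]
    by_cases ha : (a : G) = 1
    · simp [ha]
    have hm : (z : G) ∈ P ⊓ Subgroup.centralizer {(a : G)} := by
      rw [hfix a a.2 ha]; exact Subgroup.mem_map_of_mem P.subtype hz
    rw [(Subgroup.mem_centralizer_singleton_iff.1 (Subgroup.mem_inf.1 hm).2).symm, mul_inv_cancel_right]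
  obtain ⟨x0, hx0⟩ := hH.exists_generator
  set h := Nat.card H with hh
  have hord : orderOf x0 = h := orderOf_eq_card_of_forall_mem_zpowers hx0
  let M : Matrix (Fin (2 * n)) (Fin (2 * n)) (ZMod p) := LinearMap.toMatrixAlgEquiv b (L x0)
  let J : Matrix (Fin (2 * n)) (Fin (2 * n)) (ZMod p) := LinearMap.toMatrix₂ b b B
  refine dvd_pow_succ_or_pred hcop hn1 M J ?_ ?_ ?_ ?_
  · rw [Matrix.isUnit_iff_isUnit_det, isUnit_iff_ne_zero]
    intro hd
    obtain ⟨v, hv0, hv⟩ := Matrix.exists_mulVec_eq_zero_iff.2 hd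
    have hBw : ∀ i, B (b i) (b.equivFun.symm v) = 0 := by
      intro i
      have h1 := congrFun hv i
      rw [b.equivFun_symm_apply, map_sum]
      simp only [Matrix.mulVec, dotProduct, J, LinearMap.toMatrix₂_apply, Pi.zero_apply] at h1
      rw [← h1]
      exact Finset.sum_congr rfl fun j _ => by rw [map_smul, smul_eq_mul, mul_comm]
    have hB0 : B.flip (b.equivFun.symm v) = 0 := b.ext fun i => hBw i
    obtain ⟨k, hk⟩ := QuotientGroup.mk_surjective (Additive.toMul (b.equivFun.symm v))
    have hkZ : k ∈ Z := by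
      refine Subgroup.mem_center_iff.2 fun a => commutatorElement_eq_one_iff_mul_comm.1 ?_
      have h1 : B (Additive.ofMul (a : P ⧸ Z)) (Additive.ofMul (k : P ⧸ Z)) = 0 := by
        rw [hk, ofMul_toMul]
        exact LinearMap.congr_fun hB0 _
      rw [hB, toAdd_eq_zero, MulEquiv.map_eq_one_iff] at h1
      exact congrArg Subtype.val h1
    apply hv0
    have : b.equivFun.symm v = 0 := by
      apply Additive.toMul.injective
      rw [← hk, toMul_zero]
      exact (QuotientGroup.eq_one_iff _).2 hkZ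
    exact (LinearEquiv.map_eq_zero_iff _).1 this
  · simp only [M]
    rw [← map_pow, ← map_pow, ← hord, pow_orderOf_eq_one, map_one, map_one]
  · have hcomp : B.compl₁₂ (L x0) (L x0) = B := by
      refine LinearMap.ext fun u => LinearMap.ext fun w => ?_
      obtain ⟨a, rfl⟩ : ∃ a : P, Additive.ofMul (a : P ⧸ Z) = u :=
        ⟨(Additive.toMul u).out, by rw [QuotientGroup.out_eq', ofMul_toMul]⟩
      obtain ⟨k, rfl⟩ : ∃ k : P, Additive.ofMul (k : P ⧸ Z) = w :=
        ⟨(Additive.toMul w).out, by rw [QuotientGroup.out_eq', ofMul_toMul]⟩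
      rw [LinearMap.compl₁₂_apply, hL, hL, hB, hB]
      congr 2
      refine Subtype.ext ?_
      show ⁅cj x0 a, cj x0 k⁆ = ⁅a, k⁆
      rw [← map_commutatorElement]
      exact hfixZ x0 _ (commutator_mem_center hP a k)
    have h1 := LinearMap.toMatrix₂_compl₁₂ b b b b B (L x0) (L x0)
    rw [hcomp] at h1
    exact h1.symm
  · intro i hi0 hih v hv
    set y : H := x0 ^ i with hy
    have hy1 : (y : G) ≠ 1 := by
      intro e
      have : x0 ^ i = 1 := Subtype.ext e
      exact pow_ne_one_of_lt_orderOf hi0.ne' (hord.symm ▸ hih) this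
    have hLy : L y (b.equivFun.symm v) = b.equivFun.symm v := by
      apply b.equivFun.injective
      rw [LinearEquiv.apply_symm_apply]
      have h2 := LinearMap.toMatrix_mulVec_repr b b (L y) (b.equivFun.symm v)
      have h3 : LinearMap.toMatrix b b (L y) = M ^ i := by
        show LinearMap.toMatrixAlgEquiv b (L y) = _
        rw [hy, map_pow, map_pow]
      rw [h3, ← b.equivFun_apply, LinearEquiv.apply_symm_apply, hv] at h2
      exact h2.symm
    obtain ⟨k, hk⟩ := QuotientGroup.mk_surjective (Additive.toMul (b.equivFun.symm v))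
    have hk' : b.equivFun.symm v = Additive.ofMul (k : P ⧸ Z) := by rw [hk, ofMul_toMul]
    rw [hk', hL] at hLy
    have hq : ρ y (k : P ⧸ Z) = (k : P ⧸ Z) := Additive.ofMul.injective hLy
    have hpow : ∀ j : ℕ, ρ (y ^ j) (k : P ⧸ Z) = (k : P ⧸ Z) := by
      intro j
      induction j with
      | zero => rw [pow_zero, map_one]; rfl
      | succ j ih => rw [pow_succ, map_mul, MulAut.mul_apply, hq, ih]
    set N : Subgroup G := Z.map P.subtype with hN
    set A : Subgroup G := Subgroup.zpowers (y : G) with hA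
    have hAH : A ≤ H := Subgroup.zpowers_le.2 y.2
    have hcardN : Nat.card N = p := by
      rw [hN, Subgroup.card_map_of_injective P.subtype_injective, hP.2]
    have hAN : A ≤ Subgroup.normalizer (N : Set G) := by
      refine fun a ha => Subgroup.le_normalizer_iff.2 ?_ (Subgroup.mem_zpowers a)
      rintro _ hb _ ⟨z, hz, rfl⟩
      have hbH : _ ∈ H := Subgroup.zpowers_le.2 (hAH ha) hb
      have := congrArg Subtype.val (hfixZ ⟨_, hbH⟩ z hz)
      rw [hcj] at this
      exact ⟨z, hz, this.symm⟩
    have hcopA : (Nat.card A).Coprime (Nat.card N) :=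
      hcardN ▸ hcop.coprime_dvd_left (Subgroup.card_dvd_of_le hAH)
    obtain ⟨m, hm, hmk⟩ := CfsgLib.CoprimeAction.exists_mem_centralizer hAN hcopA
      (Or.inl inferInstance) (k := (k : G)) (fun a ha => by
        obtain ⟨j, rfl⟩ := (Submonoid.mem_powers_iff _ _).1
          (mem_powers_iff_mem_zpowers.2 ha)
        have h1 := hpow j
        have h2 : ((cj (y ^ j) k : P) : P ⧸ Z) = (k : P ⧸ Z) := h1
        have h3 : cj (y ^ j) k * k⁻¹ ∈ Z := by
          rw [← QuotientGroup.eq_one_iff, QuotientGroup.mk_mul, QuotientGroup.mk_inv, h2, mul_inv_cancel]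
        refine ⟨_, h3, ?_⟩
        show ((cj (y ^ j) k : P) : G) * ((k : G))⁻¹ = _
        rw [hcj, SubmonoidClass.coe_pow])
    have hmem : m * (k : G) ∈ P ⊓ Subgroup.centralizer {(y : G)} := by
      refine ⟨P.mul_mem (Subgroup.map_subtype_le Z hm) k.2, ?_⟩
      exact Subgroup.mem_centralizer_singleton_iff.2
        ((Subgroup.mem_centralizer_iff.1 hmk) _ (Subgroup.mem_zpowers _)).symm
    rw [hfix _ y.2 hy1] at hmem
    obtain ⟨z, hzZ, hze⟩ := hmem
    obtain ⟨z', hz', rfl⟩ := hm
    have hkZ : k ∈ Z := by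
      have : z = z' * k := Subtype.ext hze
      rw [this] at hzZ
      exact (Subgroup.mul_mem_cancel_left _ hz').1 hzZ
    have : b.equivFun.symm v = 0 := by
      rw [hk']
      exact congrArg Additive.ofMul ((QuotientGroup.eq_one_iff _).2 hkZ)
    exact (LinearEquiv.map_eq_zero_iff _).1 this

end CfsgLib.ExtraCyclic
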